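import Cfsg.Agent.H583.BR.Borel
import Cfsg.Agent.H199.PslAut

/-!
# S4829, `PSL_n(q)`: type preserving automorphisms and the double cosets of the Borel subgroup (helper99)

`tp_double` : an automorphism `Psi g * phi τ` of `PSL_n(F)` maps `z` into `s (B z B) s⁻¹`, with `s` independent of `z`:
it preserves every orbital of `PSL_n(F)` on the conjugates of a parabolic subgroup.
-/

set_option autoImplicit false
set_option linter.unusedSectionVars false

open Matrix Cfsg Subgroup

namespace Cfsg.Agent.H99.CY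

open Cfsg.Agent.H139.Bruhat Cfsg.Agent.H139.Young Cfsg.Agent.H139.FlagInner
open Cfsg.Agent.ClassicalGeometry.AutPSL.Root Cfsg.Agent.ClassicalGeometry.AutPSL.Auto
open Cfsg.Agent.ClassicalGeometry.AutPSL.Main Cfsg.Agent.H199.PslAut Cfsg.Agent.H583.BR

variable {F : Type*} [Field F] {n : ℕ}

/-- diagonal matrices -/
def dgl (f : Fin n → Fˣ) : GL (Fin n) F where
  val := diagonal fun i => (f i : F)
  inv := diagonal fun i => ((f i)⁻¹ : Fˣ)
  val_inv := by
    rw [diagonal_mul_diagonal]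
    simp
  inv_val := by
    rw [diagonal_mul_diagonal]
    simp

theorem permGL_dgl (σ : Equiv.Perm (Fin n)) (f : Fin n → Fˣ) :
    permGL F n σ * dgl f = dgl (fun i => f (σ⁻¹ i)) * permGL F n σ := by
  apply Units.ext
  ext i j
  rw [Units.val_mul, Units.val_mul, permGL_mul_apply]
  change (diagonal (fun i => (f i : F)) : Matrix (Fin n) (Fin n) F) _ _ =
    ((diagonal (fun i => (f (σ⁻¹ i) : F)) : Matrix (Fin n) (Fin n) F) *
      ((permGL F n σ : GL (Fin n) F) : Matrix (Fin n) (Fin n) F)) i j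
  rw [diagonal_mul, coe_permGL, diagonal_apply, Equiv.Perm.permMatrix, PEquiv.toMatrix_apply]
  by_cases h : σ⁻¹ i = j
  · subst h
    simp
  · rw [if_neg h]
    have : ¬ (j ∈ (Equiv.toPEquiv σ⁻¹) i) := by
      simp only [Equiv.toPEquiv_apply, Option.mem_def, Option.some.injEq]
      exact h
    rw [if_neg this, mul_zero]

theorem dgl_upper (f : Fin n → Fˣ) : dgl f ∈ parabolicGL n F (fun _ => 1) := by
  rw [mem_upperGL]
  intro i j hij
  exact diagonal_apply_ne _ hij.ne'

theorem exists_dgl_det (hn : 0 < n) (u : Fˣ) : ∃ f : Fin n → Fˣ, GeneralLinearGroup.det (dgl (F := F) f) = u := by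
  refine ⟨Function.update 1 ⟨0, hn⟩ u, ?_⟩
  apply Units.ext
  rw [GeneralLinearGroup.val_det_apply]
  change (diagonal fun i => ((Function.update (1 : Fin n → Fˣ) ⟨0, hn⟩ u i : Fˣ) : F)).det = u
  rw [det_diagonal, Finset.prod_eq_single (⟨0, hn⟩ : Fin n)]
  · rw [Function.update_self]
  · intro i _ hi
    rw [Function.update_of_ne hi]
    rfl
  · exact fun h => absurd (Finset.mem_univ _) h

/-- the field automorphism on `GL_n` -/
theorem map_permGL (τ : F ≃+* F) (σ : Equiv.Perm (Fin n)) :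
    GeneralLinearGroup.map (n := Fin n) (τ : F →+* F) (permGL F n σ) = permGL F n σ := by
  apply Units.ext
  ext i j
  change τ ((permGL F n σ : Matrix (Fin n) (Fin n) F) i j) = (permGL F n σ : Matrix (Fin n) (Fin n) F) i j
  rw [coe_permGL, Equiv.Perm.permMatrix, PEquiv.toMatrix_apply]
  split_ifs <;> simp

theorem map_upper (τ : F ≃+* F) {u : GL (Fin n) F} (hu : u ∈ parabolicGL n F (fun _ => 1)) :
    GeneralLinearGroup.map (n := Fin n) (τ : F →+* F) u ∈ parabolicGL n F (fun _ => 1) := by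
  rw [mem_upperGL] at hu ⊢
  intro i j hij
  change τ ((u : Matrix (Fin n) (Fin n) F) i j) = 0
  rw [hu i j hij, map_zero]

/-- **type preserving automorphisms preserve the double cosets** -/
theorem tp_double (hn : 0 < n) (g : GL (Fin n) F) (τ : F ≃+* F) :
    ∃ s : ProjectiveSpecialLinearGroup (Fin n) F, ∀ z : ProjectiveSpecialLinearGroup (Fin n) F,
      ∃ b ∈ bor n F, ∃ c ∈ bor n F, (Psi n F g * phi n F τ) z = s * (b * z * c) * s⁻¹ := by
  obtain ⟨f, hf⟩ := exists_dgl_det (F := F) hn (GeneralLinearGroup.det g)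
  have hdet0 : GeneralLinearGroup.det (g * (dgl f)⁻¹) = 1 := by
    rw [map_mul, map_inv (GeneralLinearGroup.det (n := Fin n) (R := F)) (dgl f), hf, mul_inv_cancel]
  obtain ⟨s0, hs0⟩ := exists_toGL hdet0
  refine ⟨pr s0, fun z => ?_⟩
  obtain ⟨z, rfl⟩ := pr_surjective z
  obtain ⟨u, hu, σ, v, hv, e⟩ := bruhat (SpecialLinearGroup.toGL z)
  have hu' := upper_le (fun _ => 1) hu
  have hv' := upper_le (fun _ => 1) hv
  obtain ⟨t, ht⟩ : ∃ t : GL (Fin n) F, t = dgl f := ⟨_, rfl⟩
  obtain ⟨m, hm⟩ : ∃ m : GL (Fin n) F →* GL (Fin n) F, m = GeneralLinearGroup.map (n := Fin n) (τ : F →+* F) := ⟨_, rfl⟩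
  obtain ⟨w, hw⟩ : ∃ w, w = cj (dgl f) (fld τ z) := ⟨_, rfl⟩
  have hwt : SpecialLinearGroup.toGL w = t * m (SpecialLinearGroup.toGL z) * t⁻¹ := by
    apply Units.ext
    rw [hw, ht, hm]
    rfl
  obtain ⟨b', hb'⟩ : ∃ b', b' = t * m u * u⁻¹ := ⟨_, rfl⟩
  obtain ⟨c', hc'⟩ : ∃ c', c' = v⁻¹ * m v * t⁻¹ := ⟨_, rfl⟩
  obtain ⟨D, hD⟩ := exists_dgl_det (F := F) hn (GeneralLinearGroup.det b')
  have htu : t ∈ parabolicGL n F (fun _ => 1) := by rw [ht]; exact dgl_upper f
  have hmu : m u ∈ parabolicGL n F (fun _ => 1) := by rw [hm]; exact map_upper τ hu'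
  have hmv : m v ∈ parabolicGL n F (fun _ => 1) := by rw [hm]; exact map_upper τ hv'
  have hmp : m (permGL F n σ) = permGL F n σ := by rw [hm]; exact map_permGL τ σ
  have hbu : b' ∈ parabolicGL n F (fun _ => 1) := by
    rw [hb']; exact mul_mem (mul_mem htu hmu) (inv_mem hu')
  have hcu : c' ∈ parabolicGL n F (fun _ => 1) := by
    rw [hc']; exact mul_mem (mul_mem (inv_mem hv') hmv) (inv_mem htu)
  have e1 : SpecialLinearGroup.toGL w = b' * SpecialLinearGroup.toGL z * c' := by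
    rw [hwt, hb', hc', e, map_mul, map_mul, hmp]
    group
  have hDD := permGL_dgl (F := F) σ D
  obtain ⟨D', hD'⟩ : ∃ D' : GL (Fin n) F, D' = dgl (fun i => D (σ⁻¹ i)) := ⟨_, rfl⟩
  have hD'u : D' ∈ parabolicGL n F (fun _ => 1) := by rw [hD']; exact dgl_upper _
  rw [← hD'] at hDD
  have hdetz : GeneralLinearGroup.det (SpecialLinearGroup.toGL z) = 1 := det_toGL z
  have hdetD : GeneralLinearGroup.det D' = GeneralLinearGroup.det (dgl D) := by
    have h1 := congrArg GeneralLinearGroup.det hDD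
    rw [map_mul, map_mul, mul_comm] at h1
    exact (mul_right_cancel h1).symm
  have hdetb : GeneralLinearGroup.det (b' * u * D'⁻¹ * u⁻¹) = 1 := by
    rw [map_mul, map_mul, map_mul, map_inv, map_inv, hdetD, hD, mul_inv_eq_one, mul_inv_eq_iff_eq_mul, mul_comm]
  have hdetw : GeneralLinearGroup.det b' * GeneralLinearGroup.det c' = 1 := by
    have h1 := congrArg GeneralLinearGroup.det e1
    rw [map_mul, map_mul, hdetz, det_toGL, mul_one] at h1
    exact h1.symm
  have hdetc : GeneralLinearGroup.det (v⁻¹ * dgl D * v * c') = 1 := by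
    rw [map_mul, map_mul, map_mul, map_inv, hD, mul_comm (GeneralLinearGroup.det v)⁻¹, inv_mul_cancel_right, hdetw]
  obtain ⟨b, hb⟩ := exists_toGL hdetb
  obtain ⟨c, hc⟩ := exists_toGL hdetc
  have hbm : b ∈ slp n F (fun _ => 1) := by
    change SpecialLinearGroup.toGL b ∈ parabolicGL n F (fun _ => 1)
    rw [hb]
    exact mul_mem (mul_mem (mul_mem hbu hu') (inv_mem hD'u)) (inv_mem hu')
  have hcm : c ∈ slp n F (fun _ => 1) := by
    change SpecialLinearGroup.toGL c ∈ parabolicGL n F (fun _ => 1)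
    rw [hc]
    exact mul_mem (mul_mem (mul_mem (inv_mem hv') (dgl_upper D)) hv') hcu
  refine ⟨pr b, ⟨b, hbm, rfl⟩, pr c, ⟨c, hcm, rfl⟩, ?_⟩
  have e2 : w = b * z * c := by
    apply SpecialLinearGroup.toGL_injective
    rw [e1, map_mul, map_mul, hb, hc, e]
    have h1 : D'⁻¹ * permGL F n σ * dgl D = permGL F n σ := by
      rw [mul_assoc, hDD, inv_mul_cancel_left]
    calc b' * (u * permGL F n σ * v) * c' = b' * u * (permGL F n σ) * (v * c') := by group
      _ = b' * u * (D'⁻¹ * permGL F n σ * dgl D) * (v * c') := by rw [h1]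
      _ = _ := by group
  rw [← map_mul, ← map_mul, ← e2, ← map_inv, ← map_mul, ← map_mul]
  change pr (cj g (fld τ z)) = _
  congr 1
  apply SpecialLinearGroup.toGL_injective
  rw [map_mul, map_mul, map_inv, hwt, hs0, ht]
  have h2 : SpecialLinearGroup.toGL (cj g (fld τ z)) = g * m (SpecialLinearGroup.toGL z) * g⁻¹ := by
    apply Units.ext
    rw [hm]
    rfl
  rw [h2]
  group

end Cfsg.Agent.H99.CY
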